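import Cfsg.Prelude.Def_Sporadic_a

theorem CA.E_Cfsg_pointBlockRel_eq_4.t : True := by
  have _h := @Cfsg.pointBlockRel.eq_4.{0}
  trivial
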